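import Cfsg.Agent.H1.Basic
import Cfsg.Agent.L0.Subnormal

/-! Families of subnormal subgroups closed under conjugation. -/

set_option autoImplicit false
set_option linter.style.haveILetI false
set_option linter.unusedSectionVars false
open scoped Pointwise commutatorElement
open Subgroup

namespace Cfsg.H1

variable {G : Type*} [Group G]

theorem exists_le_normalizer_sSup [Finite G] (K : Subgroup G) (S S₀ : Set (Subgroup G))
    (hS : ∀ U ∈ S, L0.SN U K) (hc : ∀ U ∈ S, ∀ g ∈ K, MulAut.conj g • U ∈ S) (h₀ : S₀ ⊂ S) :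
    ∃ X ∈ S, X ∉ S₀ ∧ X ≤ normalizer ((sSup S₀ : Subgroup G) : Set G) := by
  induction K using WellFoundedLT.induction generalizing S with
  | ind K ih =>
    obtain ⟨X, hX, hX0⟩ := Set.exists_of_ssubset h₀
    rcases (L0.SN.sSup fun U hU => hS U (h₀.1 hU)).eq_or_exists with h | ⟨N, h1, h2, h3⟩
    · exact ⟨X, hX, hX0, (hS X hX).le.trans (h ▸ le_normalizer)⟩
    have h4 : ∀ U ∈ S, U ≤ N → ∀ g ∈ K, MulAut.conj g • U ≤ N := fun U _ hU g hg =>
      L0.cj_le_of_le hU (h3 hg)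
    by_cases h5 : {U ∈ S | U ≤ N} ⊆ S₀
    · exact ⟨X, hX, hX0, (hS X hX).le.trans (L0.le_normalizer_sSup fun g hg U hU =>
        h5 ⟨hc U (h₀.1 hU) g hg, h4 U (h₀.1 hU) ((le_sSup hU).trans h1.le) g hg⟩)⟩
    obtain ⟨Y, hY, hY0⟩ := ih N h2 {U ∈ S | U ≤ N}
      (fun U hU => (hS U hU.1).mono_right hU.2 h2.le)
      (fun U hU g hg => ⟨hc U hU.1 g (h2.le hg), h4 U hU.1 hU.2 g (h2.le hg)⟩)
      ⟨fun U hU => ⟨h₀.1 hU, (le_sSup hU).trans h1.le⟩, h5⟩
    exact ⟨Y, hY.1, hY0⟩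

end Cfsg.H1
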